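import Cfsg.Agent.OD.Pre
import Cfsg.Agent.H6.Top2
import Cfsg.Agent.H6.SuzA.C
set_option autoImplicit false
set_option maxRecDepth 100000
set_option Elab.async false
set_option linter.all false
namespace CfH6.SuzA
open CfH6 MulAction
theorem e0_0 : EqsOk nets0 eqs0 2048 11 0 11 :=
  eqsOk_of _ _ _ _ 0 11 _ (by decide) (by decide +kernel)
theorem ok0 : okNets 2048 nets0 = true := by decide +kernel
theorem x1_0 : NxOk nets0 ws1 nets1 6 2048 11 2048 0 11 :=
  nxOk_of _ _ _ _ _ _ _ 0 11 _ (by decide) (by decide +kernel)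
theorem sx1 : sideNx ws1 nets1 7 2048 11 2048 = true := by decide +kernel
theorem x2_0 : NxOk nets1 ws2 nets2 2 2048 11 128 0 11 :=
  nxOk_of _ _ _ _ _ _ _ 0 11 _ (by decide) (by decide +kernel)
theorem sx2 : sideNx ws2 nets2 6 2048 11 128 = true := by decide +kernel
theorem x3_0 : NxOk nets2 ws3 nets3 2 128 7 40 0 7 :=
  nxOk_of _ _ _ _ _ _ _ 0 7 _ (by decide) (by decide +kernel)
theorem sx3 : sideNx ws3 nets3 2 128 7 40 = true := by decide +kernel
theorem x4_0 : NxOk nets3 ws4 nets4 2 40 6 10 0 6 :=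
  nxOk_of _ _ _ _ _ _ _ 0 6 _ (by decide) (by decide +kernel)
theorem sx4 : sideNx ws4 nets4 2 40 6 10 = true := by decide +kernel
theorem x5_0 : NxOk nets4 ws5 nets5 2 10 4 10 0 4 :=
  nxOk_of _ _ _ _ _ _ _ 0 4 _ (by decide) (by decide +kernel)
theorem sx5 : sideNx ws5 nets5 2 10 4 10 = true := by decide +kernel
theorem x6_0 : NxOk nets5 ws6 nets6 1 10 4 10 0 4 :=
  nxOk_of _ _ _ _ _ _ _ 0 4 _ (by decide) (by decide +kernel)
theorem sx6 : sideNx ws6 nets6 2 10 4 10 = true := by decide +kernel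
theorem oi1_0 : (Nat.blt 0 6 && Nat.beq (orbN nets1 6 36 (Nat.shiftLeft 1 1)) S1) = true := by decide +kernel
theorem ci1 : (Nat.beq (chkInv nets1 6 S1) 0 && S1.testBit 1) = true := by decide +kernel
theorem oi2_0 : (Nat.blt 0 6 && Nat.beq (orbN nets1 6 24 (Nat.shiftLeft 1 1492)) S2) = true := by decide +kernel
theorem ci2 : (Nat.beq (chkInv nets1 6 S2) 0 && S2.testBit 1492) = true := by decide +kernel
theorem cm2 : chkMx 2048 nets0 7 ws1 6 1782 w2 1492 J2 lBig = true := by decide +kernel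
theorem cm1 : chkMx 2048 nets0 7 ws1 6 1782 w1 1 J1 lBig = true := by decide +kernel
theorem og6 : Nat.ble 3 (popc 4 (orbN nets6 1 2 (Nat.shiftLeft 1 6))) = true := by decide +kernel
theorem og5 : Nat.ble 4 (popc 4 (orbN nets5 2 4 (Nat.shiftLeft 1 5))) = true := by decide +kernel
theorem og4 : Nat.ble 5 (popc 4 (orbN nets4 2 4 (Nat.shiftLeft 1 4))) = true := by decide +kernel
theorem og3 : Nat.ble 32 (popc 6 (orbN nets3 2 10 (Nat.shiftLeft 1 3))) = true := by decide +kernel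
theorem og2 : Nat.ble 96 (popc 7 (orbN nets2 2 14 (Nat.shiftLeft 1 2))) = true := by decide +kernel
theorem pw0 : (allLt 7 (wpow [1, 2, 3, 6, 4, 5] (11 ^ 1)) && bs'.all fun b => Nat.blt b 2048 && Nat.beq (chkMap nets0 (wpow [1, 2, 3, 6, 4, 5] (11 ^ 1)) b b) 0) = true := by decide +kernel
end CfH6.SuzA
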